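import Cfsg.Agent.Lib.Helper94.SpRow.Defs3

set_option autoImplicit false
set_option linter.unusedSectionVars false

/-! # Pieces SV, TAU, NT, TV of the Sp rows farm, wave 3 (helper94) -/

namespace Cfsg.Agent.Lib.Helper12.SpRow

open Cfsg Cfsg.Geo Matrix
open scoped MatrixGroups
open Cfsg.Agent.Lib.Helper94.Tens Cfsg.Agent.Lib.Helper94.SpRow Cfsg.Agent.Lib.Helper94

variable {F : Type*} [Field F]

/-- SV -/
theorem pure_of_det_zero (y : Fin 2 × Fin 2 → F) (h : y (0, 0) * y (1, 1) - y (0, 1) * y (1, 0) = 0) :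
    ∃ b c : Fin 2 → F, ∀ p, y p = b p.1 * c p.2 := by
  by_cases h00 : y (0, 0) = 0
  swap
  · refine ⟨fun i => y (i, 0), fun j => y (0, j) / y (0, 0), ?_⟩
    rintro ⟨i, j⟩
    fin_cases i <;> fin_cases j <;> simp <;> field_simp <;> linear_combination h
  by_cases h01 : y (0, 1) = 0
  swap
  · refine ⟨fun i => y (i, 1), fun j => y (0, j) / y (0, 1), ?_⟩
    rintro ⟨i, j⟩
    fin_cases i <;> fin_cases j <;> simp <;> field_simp <;> linear_combination -h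
  by_cases h10 : y (1, 0) = 0
  swap
  · refine ⟨fun i => y (i, 0), fun j => y (1, j) / y (1, 0), ?_⟩
    rintro ⟨i, j⟩
    fin_cases i <;> fin_cases j <;> simp <;> field_simp <;> linear_combination -h
  by_cases h11 : y (1, 1) = 0
  swap
  · refine ⟨fun i => y (i, 1), fun j => y (1, j) / y (1, 1), ?_⟩
    rintro ⟨i, j⟩
    fin_cases i <;> fin_cases j <;> simp <;> field_simp <;> linear_combination h
  refine ⟨0, 0, ?_⟩
  rintro ⟨i, j⟩
  fin_cases i <;> fin_cases j <;> simp [h00, h01, h10, h11]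

lemma g3_sw (x y : I3 → F) : g3 (x ∘ sw) (y ∘ sw) = g3 x y := by
  simp only [g3, Fintype.sum_prod_type, Fin.sum_univ_two, sw, om_00, om_01, om_10, om_11,
    Function.comp]
  ring

/-- TAU -/
theorem exists_tau (e : (Fin 4 ⊕ Fin 4) ≃ Fin 2 × Fin 4) (P : GL (Fin 4 ⊕ Fin 4) F)
    (f₂ : (Fin 4 → F) → (Fin 4 → F) → F) (D : Fr e P f₂) :
    ∃ τ ∈ spGL 4 F, ∀ x, (τ : Matrix _ _ F) *ᵥ D.Φ x = D.Φ (x ∘ sw) := by
  let S : (I3 → F) ≃ₗ[F] (I3 → F) := LinearEquiv.funCongrLeft F F ⟨sw, sw, sw_sw, sw_sw⟩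
  have hS : ∀ x, S x = x ∘ sw := fun x => rfl
  let φ : (Fin 4 ⊕ Fin 4 → F) ≃ₗ[F] (Fin 4 ⊕ Fin 4 → F) := D.Φ.symm.trans (S.trans D.Φ)
  have hφ : ∀ x, φ (D.Φ x) = D.Φ (x ∘ sw) := by
    intro x
    simp only [φ, LinearEquiv.trans_apply, LinearEquiv.symm_apply_apply, hS]
  have hτ : ∀ x, (((glEquiv _ F).symm φ : GL (Fin 4 ⊕ Fin 4) F) : Matrix _ _ F) *ᵥ D.Φ x
      = D.Φ (x ∘ sw) := by
    intro x
    rw [← glEquiv_apply, MulEquiv.apply_symm_apply, hφ]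
  refine ⟨(glEquiv _ F).symm φ, ?_, hτ⟩
  rw [mem_spGL]
  intro u v
  obtain ⟨x, rfl⟩ := D.Φ.surjective u
  obtain ⟨y, rfl⟩ := D.Φ.surjective v
  rw [hτ, hτ, D.form, D.form, g3_sw]

lemma pt_coords (e : (Fin 4 ⊕ Fin 4) ≃ Fin 2 × Fin 4) (P : GL (Fin 4 ⊕ Fin 4) F)
    (α : Fin 2 → F) (z w0 w1 : Fin 4 → F)
    (h : pt e P α z = pt e P (Pi.single 0 1) w0 + pt e P (Pi.single 1 1) w1) :
    α 0 • z = w0 ∧ α 1 • z = w1 := by
  have hα : α = α 0 • Pi.single 0 1 + α 1 • Pi.single 1 1 := by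
    funext i; fin_cases i <;> simp
  have h1 : pt e P α z = α 0 • pt e P (Pi.single 0 1) z + α 1 • pt e P (Pi.single 1 1) z := by
    conv_lhs => rw [hα]
    simp only [map_add, map_smul, LinearMap.add_apply, LinearMap.smul_apply]
  have key := sum_pt_eq_zero e P (⇑(Pi.basisFun F (Fin 2))) (Pi.basisFun F (Fin 2)).linearIndependent
    ![α 0 • z - w0, α 1 • z - w1] (by
      rw [Fin.sum_univ_two]
      simp only [Pi.basisFun_apply, Matrix.cons_val_zero, Matrix.cons_val_one, map_sub, map_smul]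
      rw [h1] at h
      calc _ = (α 0 • pt e P (Pi.single 0 1) z + α 1 • pt e P (Pi.single 1 1) z)
            - (pt e P (Pi.single 0 1) w0 + pt e P (Pi.single 1 1) w1) := by abel
        _ = 0 := by rw [h, sub_self])
  have k0 := key 0
  have k1 := key 1
  simp only [Matrix.cons_val_zero, Matrix.cons_val_one] at k0 k1
  exact ⟨sub_eq_zero.1 k0, sub_eq_zero.1 k1⟩

/-- NT -/
theorem tau_not_mem (e : (Fin 4 ⊕ Fin 4) ≃ Fin 2 × Fin 4) (P : GL (Fin 4 ⊕ Fin 4) F)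
    (f₂ : (Fin 4 → F) → (Fin 4 → F) → F) (D : Fr e P f₂) (τ : GL (Fin 4 ⊕ Fin 4) F)
    (hτ : ∀ x, (τ : Matrix _ _ F) *ᵥ D.Φ x = D.Φ (x ∘ sw)) :
    τ ∉ tensorProductSubgroup 2 4 e P := by
  intro hmem
  obtain ⟨A, B, hAB⟩ := exists_of_mem e P τ hmem
  set e0 : Fin 2 → F := Pi.single 0 1 with he0
  set e1 : Fin 2 → F := Pi.single 1 1 with he1
  set d00 : Fin 2 × Fin 2 → F := Pi.single (0, 0) 1 with hd00
  set d10 : Fin 2 × Fin 2 → F := Pi.single (1, 0) 1 with hd10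
  have hw : D.W d00 ≠ 0 := by
    intro h
    have : d00 = 0 := D.W.map_eq_zero_iff.1 h
    have := congrFun this (0, 0)
    simp [hd00] at this
  have s1 : (fun p : I3 => e0 p.1 * d00 p.2) ∘ sw = fun p : I3 => e0 p.1 * d00 p.2 := by
    funext ⟨i, j, k⟩
    fin_cases i <;> fin_cases j <;> fin_cases k <;> simp [sw, he0, hd00, Pi.single_apply]
  have s2 : (fun p : I3 => e0 p.1 * d10 p.2) ∘ sw = fun p : I3 => e1 p.1 * d00 p.2 := by
    funext ⟨i, j, k⟩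
    fin_cases i <;> fin_cases j <;> fin_cases k <;> simp [sw, he0, he1, hd00, hd10, Pi.single_apply]
  have t1 := hτ (fun p : I3 => e0 p.1 * d00 p.2)
  have t2 := hτ (fun p : I3 => e0 p.1 * d10 p.2)
  rw [s1, D.pure, hAB] at t1
  rw [s2, D.pure, D.pure, hAB] at t2
  obtain ⟨a1, a2⟩ := pt_coords e P _ _ (D.W d00) 0 (by rw [t1, map_zero, add_zero])
  obtain ⟨b1, b2⟩ := pt_coords e P _ _ 0 (D.W d00) (by rw [t2, map_zero, zero_add])
  rcases smul_eq_zero.1 a2 with h | h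
  · rw [h, zero_smul] at b2
    exact hw b2.symm
  · rw [h, smul_zero] at a1
    exact hw a1.symm

lemma g3_single : g3 (Pi.single ((0, 0, 0) : I3) (1 : F)) (Pi.single ((1, 1, 1) : I3) (1 : F)) = 1 := by
  simp [g3, Fintype.sum_prod_type, Fin.sum_univ_two, Pi.single_apply]

/-- TV -/
theorem exists_tv_not_pure (e : (Fin 4 ⊕ Fin 4) ≃ Fin 2 × Fin 4) (P : GL (Fin 4 ⊕ Fin 4) F)
    (f₂ : (Fin 4 → F) → (Fin 4 → F) → F) (D : Fr e P f₂) :
    ∃ t ∈ spGL 4 F, ∃ x ∈ Pure3 F, ∀ x' ∈ Pure3 F, (t : Matrix _ _ F) *ᵥ D.Φ x ≠ D.Φ x' := by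
  refine ⟨tvG (D.Φ (Pi.single ((1, 1, 1) : I3) 1)) 1, tvG_mem _ _, Pi.single ((0, 0, 0) : I3) 1,
    ⟨Pi.single 0 1, Pi.single 0 1, Pi.single 0 1, ?_⟩, ?_⟩
  · rintro ⟨i, j, k⟩
    fin_cases i <;> fin_cases j <;> fin_cases k <;> simp [Pi.single_apply]
  · rintro x' ⟨a, b, c, hx'⟩ heq
    rw [tvG_mulVec, D.form, g3_single, ← map_smul, ← map_add] at heq
    have hx := D.Φ.injective heq
    have h000 := congrFun hx (0, 0, 0)
    have h111 := congrFun hx (1, 1, 1)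
    have h001 := congrFun hx (0, 0, 1)
    rw [hx'] at h000 h111 h001
    simp [Pi.single_apply] at h000 h111 h001
    have hκ := D.hκ
    rcases h001 with h | h | h
    · rw [h] at h000; simp at h000
    · rw [h] at h000; simp at h000
    · rw [h] at h111; simp at h111; exact hκ h111

end Cfsg.Agent.Lib.Helper12.SpRow
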